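import Cfsg.Agent.TransBound.Setting

/-!
An `(r+1)`-transitive group of degree `k * p + r` with `k < r` contains the alternating group.
-/

set_option autoImplicit false

namespace Cfsg.Agent.TransBound

open MulAction Equiv
open scoped Pointwise

variable {α : Type*} [Fintype α] [DecidableEq α]

theorem not_commute_of_moved {β : Type*} [DecidableEq β] {M : Subgroup (Perm β)} [M.Normal]
    (hab : ∀ a ∈ M, ∀ b ∈ M, a * b = b * a) {a : Perm β} (ha : a ∈ M) {u w : β} (hwu : w ≠ u)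
    (hwv : w ≠ a u) (hw : a w = w) (hu : a u ≠ u) : False := by
  set v := a u
  have hb : Equiv.swap v w * a * (Equiv.swap v w)⁻¹ ∈ M :=
    (inferInstance : M.Normal).conj_mem a ha _
  have h := congrArg (fun f : Perm β => f u) (hab a ha _ hb)
  simp only [Equiv.swap_inv, Perm.mul_apply] at h
  rw [Equiv.swap_apply_of_ne_of_ne hu.symm hwu.symm] at h
  change a (Equiv.swap v w v) = Equiv.swap v w (a (Equiv.swap v w v)) at h
  rw [Equiv.swap_apply_left, hw, Equiv.swap_apply_right] at h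
  exact hwv h

theorem eq_bot_of_abelian_normal {β : Type*} [Fintype β] [DecidableEq β] (hβ : 5 ≤ Fintype.card β)
    (M : Subgroup (Perm β)) [M.Normal] (hab : ∀ a ∈ M, ∀ b ∈ M, a * b = b * a) : M = ⊥ := by
  by_contra hM
  have hle := Equiv.Perm.alternatingGroup_le_of_normal (by rwa [Nat.card_eq_fintype_card])
    ((Subgroup.nontrivial_iff_ne_bot M).2 hM)
  obtain ⟨s, hs⟩ := Finset.exists_subset_card_eq (s := (Finset.univ : Finset β)) (n := 4)
    (by rw [Finset.card_univ]; omega)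
  obtain ⟨a, b, c, d, hab', hac, had, hbc, hbd, hcd, -⟩ := Finset.card_eq_four.1 hs.2
  have ht : (Equiv.swap a b * Equiv.swap a c).IsThreeCycle :=
    Equiv.Perm.isThreeCycle_swap_mul_swap_same hab' hac hbc
  refine not_commute_of_moved hab (hle ht.mem_alternatingGroup) (u := a) (w := d) had.symm ?_ ?_ ?_
  · rw [Perm.mul_apply, Equiv.swap_apply_left, Equiv.swap_apply_of_ne_of_ne hac.symm hbc.symm]
    exact hcd.symm
  · rw [Perm.mul_apply, Equiv.swap_apply_of_ne_of_ne had.symm hcd.symm,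
      Equiv.swap_apply_of_ne_of_ne had.symm hbd.symm]
  · rw [Perm.mul_apply, Equiv.swap_apply_left, Equiv.swap_apply_of_ne_of_ne hac.symm hbc.symm]
    exact hac.symm

theorem eq_bot_of_central {β : Type*} [Fintype β] [DecidableEq β] (hβ : 3 ≤ Fintype.card β)
    {m : Perm β} (h : ∀ f : Perm β, f * m = m * f) : m = 1 := by
  refine Equiv.ext fun u => ?_
  by_contra hu
  rw [Perm.one_apply] at hu
  obtain ⟨w, -, hw⟩ := Finset.exists_mem_notMem_of_card_lt_card
    (s := ({u, m u} : Finset β)) (t := Finset.univ) (by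
      rw [Finset.card_univ]
      exact (Finset.card_le_two).trans_lt (by omega))
  simp only [Finset.mem_insert, Finset.mem_singleton, not_or] at hw
  have h1 := congrArg (fun f : Perm β => f u) (h (Equiv.swap (m u) w))
  simp only [Perm.mul_apply] at h1
  rw [Equiv.swap_apply_left, Equiv.swap_apply_of_ne_of_ne (Ne.symm hu) (Ne.symm hw.1)] at h1
  exact hw.2 h1

namespace Setting

variable (S : Setting α)

/-- The normaliser of `P` in `G` preserving `Γ`. -/
noncomputable def N : Subgroup (Perm α) :=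
  S.G ⊓ Subgroup.normalizer (S.P : Set (Perm α)) ⊓ MulAction.stabilizer (Perm α) (S.Γ : Set α)

theorem mem_Γ_iff {n : Perm α} (hn : n ∈ S.N) {x : α} : n x ∈ S.Γ ↔ x ∈ S.Γ := by
  have h := MulAction.mem_stabilizer_set.1 hn.2 x
  simpa using h

theorem conj_P {n g : Perm α} (hn : n ∈ S.N) (hg : g ∈ S.P) : n * g * n⁻¹ ∈ S.P :=
  (Subgroup.mem_normalizer_iff.1 hn.1.2 g).1 hg

theorem conj_P' {n g : Perm α} (hn : n ∈ S.N) (hg : g ∈ S.P) : n⁻¹ * g * n ∈ S.P := by
  have := S.conj_P (inv_mem hn) hg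
  rwa [inv_inv] at this

theorem orb_map {n : Perm α} (hn : n ∈ S.N) (x : α) : (S.orb x).image n = S.orb (n x) := by
  ext y
  rw [Finset.mem_image, S.mem_orb]
  constructor
  · rintro ⟨z, hz, rfl⟩
    obtain ⟨g, hg, rfl⟩ := S.mem_orb.1 hz
    exact ⟨_, S.conj_P hn hg, by simp⟩
  · rintro ⟨g, hg, rfl⟩
    exact ⟨(n⁻¹ * g * n) x, S.mem_orb.2 ⟨_, S.conj_P' hn hg, rfl⟩, by simp⟩

theorem P_le_N : S.P ≤ S.N := by
  intro g hg
  refine ⟨⟨(S.mem_H.1 (S.P_le hg)).1, Subgroup.le_normalizer hg⟩, MulAction.mem_stabilizer_set.2 ?_⟩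
  intro x
  simp only [Perm.smul_def, Finset.mem_coe]
  constructor
  · intro h
    by_contra hx
    exact S.notMem_of_H (S.P_le hg) hx h
  · intro h
    rwa [S.P_fix hg h]

/-- The action on `Γ`. -/
noncomputable def rho : S.N →* Perm {x // x ∈ S.Γ} where
  toFun n := (n : Perm α).subtypePerm (fun _ => S.mem_Γ_iff n.2)
  map_one' := by ext x; rfl
  map_mul' _ _ := by ext x; rfl

theorem rho_apply (n : S.N) (x : {x // x ∈ S.Γ}) : ((S.rho n x : {x // x ∈ S.Γ}) : α) = (n : Perm α) x :=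
  rfl

theorem witt (hΓ : S.Γ.card + 1 ≤ Fintype.card α) : Function.Surjective S.rho := by
  intro σ
  let e : Perm α := Perm.ofSubtype σ
  obtain ⟨h, hh, hhe⟩ := CfsgLib.Jordan.exists_map_le hΓ S.htrans S.Γ (by omega) e
  have he : ∀ x (hx : x ∈ S.Γ), h x = (σ ⟨x, hx⟩ : α) := fun x hx => by
    rw [hhe x hx]; exact Perm.ofSubtype_apply_of_mem σ hx
  have hΓh : ∀ x, h x ∈ S.Γ ↔ x ∈ S.Γ := by
    intro x
    refine ⟨fun hx => ?_, fun hx => by rw [he x hx]; exact (σ ⟨x, hx⟩).2⟩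
    have h1 := he _ (σ.symm ⟨h x, hx⟩).2
    rw [Subtype.coe_eta, Equiv.apply_symm_apply] at h1
    rw [← h.injective h1]
    exact (σ.symm ⟨h x, hx⟩).2
  have hconj : ∀ g ∈ S.H, h * g * h⁻¹ ∈ S.H := by
    intro g hg
    refine S.mem_H.2 ⟨mul_mem (mul_mem hh (S.mem_H.1 hg).1) (inv_mem hh), fun y hy => ?_⟩
    have h1 : h⁻¹ y ∈ S.Γ := (hΓh _).1 (by simpa using hy)
    rw [Perm.mul_apply, Perm.mul_apply, (S.mem_H.1 hg).2 _ h1]
    simp
  have hconj' : ∀ g, h * g * h⁻¹ ∈ S.H → g ∈ S.H := by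
    intro g hg
    have h1 := S.mem_H.1 hg
    refine S.mem_H.2 ⟨?_, fun y hy => ?_⟩
    · have := mul_mem (mul_mem (inv_mem hh) h1.1) hh
      simpa [mul_assoc] using this
    · have h2 := h1.2 (h y) ((hΓh y).2 hy)
      simpa using h2
  let φ : S.H ≃* S.H :=
    { toFun := fun g => ⟨h * g * h⁻¹, hconj g g.2⟩
      invFun := fun g => ⟨h⁻¹ * g * h, hconj' _ (by simp [mul_assoc, g.2])⟩
      left_inv := fun g => Subtype.ext (by simp [mul_assoc])
      right_inv := fun g => Subtype.ext (by simp [mul_assoc])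
      map_mul' := fun a b => Subtype.ext (by simp [mul_assoc]) }
  set P₀ : Sylow S.p S.H := default with hP₀
  obtain ⟨y, hy⟩ := MulAction.exists_smul_eq S.H (Sylow.comapOfInjective P₀ φ.symm.toMonoidHom
    φ.symm.injective (by rw [MonoidHom.range_eq_top.2 φ.symm.surjective]; exact le_top)) P₀
  have hn : ∀ g ∈ S.P, ((y : Perm α) * h) * g * ((y : Perm α) * h)⁻¹ ∈ S.P := by
    rintro _ ⟨g, hg, rfl⟩
    refine ⟨y * φ g * y⁻¹, ?_, by simp [φ, mul_assoc]⟩
    show _ ∈ (P₀ : Subgroup S.H)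
    rw [← hy, Sylow.coe_subgroup_smul, Subgroup.mem_pointwise_smul_iff_inv_smul_mem]
    show φ.symm _ ∈ (P₀ : Subgroup S.H)
    simp only [MulAut.smul_def, ← map_inv, MulAut.conj_apply, inv_inv]
    rw [show y⁻¹ * (y * φ g * y⁻¹) * y = φ g by group, MulEquiv.symm_apply_apply]
    exact hg
  set n : Perm α := (y : Perm α) * h with hndef
  have hyH := S.mem_H.1 y.2
  have hnN : n ∈ S.N := by
    refine ⟨⟨mul_mem hyH.1 hh, Subgroup.mem_normalizer_iff.2 fun g => ⟨hn g, fun hg => ?_⟩⟩,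
      MulAction.mem_stabilizer_set.2 fun x => ?_⟩
    · have hinj : Function.Injective (fun a : S.P => (⟨n * a * n⁻¹, hn a a.2⟩ : S.P)) :=
        fun a b he => Subtype.ext (mul_left_cancel (mul_right_cancel (congrArg Subtype.val he)))
      obtain ⟨a, ha⟩ := Finite.surjective_of_injective hinj ⟨_, hg⟩
      rw [← mul_left_cancel (mul_right_cancel (congrArg Subtype.val ha : n * a * n⁻¹ = n * g * n⁻¹))]
      exact a.2
    · simp only [Perm.smul_def, Finset.mem_coe, hndef, Perm.mul_apply]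
      constructor
      · intro hx
        by_contra hxΓ
        exact S.notMem_of_H y.2 (fun hc => hxΓ ((hΓh x).1 hc)) hx
      · intro hx
        rw [hyH.2 _ ((hΓh x).2 hx)]
        exact (hΓh x).2 hx
  refine ⟨⟨n, hnN⟩, Equiv.ext fun x => Subtype.ext ?_⟩
  rw [S.rho_apply]
  show ((y : Perm α) * h) x = _
  rw [Perm.mul_apply, hyH.2 _ ((hΓh x).2 x.2), he x x.2]

/-- The set of orbits. -/
noncomputable def orbs : Finset (Finset α) := S.Γᶜ.image S.orb

theorem card_orbs : S.orbs.card = S.k := by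
  have h := Finset.card_eq_sum_card_image S.orb S.Γᶜ
  have h2 : ∀ O ∈ S.orbs, (S.Γᶜ.filter (fun x => S.orb x = O)).card = S.p := by
    intro O hO
    obtain ⟨x, hx, rfl⟩ := Finset.mem_image.1 hO
    rw [Finset.mem_compl] at hx
    rw [← S.card_orb hx]
    congr 1
    ext y
    simp only [Finset.mem_filter, Finset.mem_compl]
    exact ⟨fun hy => hy.2 ▸ S.self_mem_orb y, fun hy => ⟨S.notMem_of_orb hx hy, S.orb_eq hy⟩⟩
  simp only [orbs] at h2
  rw [Finset.sum_congr rfl h2, Finset.sum_const, smul_eq_mul, Finset.card_compl, S.hcard] at h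
  exact (Nat.eq_of_mul_eq_mul_right S.hp.pos (show S.k * S.p = S.orbs.card * S.p by
    simp only [orbs] at h ⊢; omega)).symm

theorem image_mem {n : Perm α} (hn : n ∈ S.N) {O : Finset α} (hO : O ∈ S.orbs) :
    O.image n ∈ S.orbs := by
  obtain ⟨x, hx, rfl⟩ := Finset.mem_image.1 hO
  rw [S.orb_map hn]
  refine Finset.mem_image_of_mem _ (Finset.mem_compl.2 fun hc => ?_)
  exact Finset.mem_compl.1 hx ((S.mem_Γ_iff hn).1 hc)

/-- The action on the orbits. -/
noncomputable def piO : S.N →* Perm {O // O ∈ S.orbs} where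
  toFun n :=
    { toFun := fun O => ⟨O.1.image (n : Perm α), S.image_mem n.2 O.2⟩
      invFun := fun O => ⟨O.1.image ((n : Perm α)⁻¹ : Perm α), S.image_mem (inv_mem n.2) O.2⟩
      left_inv := fun O => Subtype.ext (by
        show (O.1.image (n : Perm α)).image _ = O.1
        ext z; simp)
      right_inv := fun O => Subtype.ext (by
        show (O.1.image _).image (n : Perm α) = O.1
        ext z; simp) }
  map_one' := by
    refine Equiv.ext fun O => Subtype.ext ?_
    show O.1.image (1 : Perm α) = O.1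
    ext z; simp
  map_mul' a b := by
    refine Equiv.ext fun O => Subtype.ext ?_
    show O.1.image ((a : Perm α) * (b : Perm α)) = (O.1.image (b : Perm α)).image (a : Perm α)
    rw [Finset.image_image]; rfl

theorem orb_fixed {ν : S.N} (hν : ν ∈ S.piO.ker) {x : α} (hx : x ∉ S.Γ) :
    S.orb ((ν : Perm α) x) = S.orb x := by
  rw [← S.orb_map ν.2]
  exact congrArg Subtype.val (congrArg (fun f : Perm {O // O ∈ S.orbs} => f ⟨S.orb x,
    Finset.mem_image_of_mem _ (Finset.mem_compl.2 hx)⟩) (MonoidHom.mem_ker.1 hν))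

/-- The elements fixing every orbit and centralising `P`. -/
noncomputable def A : Subgroup S.N :=
  S.piO.ker ⊓ (Subgroup.centralizer (S.P : Set (Perm α))).subgroupOf S.N

theorem mem_A {a : S.N} : a ∈ S.A ↔ a ∈ S.piO.ker ∧ ∀ g ∈ S.P, g * (a : Perm α) = a * g := by
  simp [A, Subgroup.mem_subgroupOf, Subgroup.mem_centralizer_iff]

theorem A_normal : S.A.Normal := by
  refine ⟨fun a ha n => S.mem_A.2 ⟨(inferInstance : S.piO.ker.Normal).conj_mem a (S.mem_A.1 ha).1 n,
    fun g hg => ?_⟩⟩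
  have h := (S.mem_A.1 ha).2 _ (S.conj_P' n.2 hg)
  have h2 := congrArg (fun t => (n : Perm α) * t * (n : Perm α)⁻¹) h
  simpa [mul_assoc] using h2

theorem A_apply {a : S.N} (ha : a ∈ S.A) {x : α} (hx : x ∉ S.Γ) :
    ∃ u ∈ S.P, (a : Perm α) x = u x := by
  have h := S.self_mem_orb ((a : Perm α) x)
  rw [S.orb_fixed (S.mem_A.1 ha).1 hx] at h
  obtain ⟨u, hu, hux⟩ := S.mem_orb.1 h
  exact ⟨u, hu, hux.symm⟩

/-- `ν` acts on the `P`-orbit of `x` by the exponent `l`. -/
def Works (ν : Perm α) (l : ℕ) (x : α) : Prop := ∀ g ∈ S.P, (ν * g * ν⁻¹) x = (g ^ l) x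

theorem works_orb {ν : Perm α} (hν : ν ∈ S.N) {l : ℕ} {x y : α} (h : S.Works ν l x)
    (hy : y ∈ S.orb x) : S.Works ν l y := by
  obtain ⟨u, hu, rfl⟩ := S.mem_orb.1 hy
  intro g hg
  rw [← Perm.mul_apply, S.P_comm (S.conj_P hν hg) hu, Perm.mul_apply, h g hg, ← Perm.mul_apply,
    S.P_comm hu (pow_mem hg l), Perm.mul_apply]

theorem exists_works {ν : S.N} (hν : ν ∈ S.piO.ker) {x : α} (hx : x ∉ S.Γ) :
    ∃ l : ℕ, S.Works ν l x := by
  obtain ⟨g₀, hg₀, hmove⟩ := S.exists_move hx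
  obtain ⟨l, hl⟩ := S.exists_pow hx hg₀ hmove (y := ((ν : Perm α) * g₀ * (ν : Perm α)⁻¹) x)
    (S.mem_orb.2 ⟨_, S.conj_P ν.2 hg₀, rfl⟩)
  refine ⟨l, fun g hg => ?_⟩
  set z := ((ν : Perm α))⁻¹ x with hz
  have hzΓ : z ∉ S.Γ := fun h => hx (by
    have := (S.mem_Γ_iff ν.2).2 h
    simpa [hz] using this)
  have hzo : z ∈ S.orb x := by
    have h := S.orb_fixed hν hzΓ
    rw [show (ν : Perm α) z = x by simp [hz]] at h
    rw [h]; exact S.self_mem_orb z
  obtain ⟨j, hj⟩ := S.exists_pow hx hg₀ hmove (y := g x) (S.mem_orb.2 ⟨g, hg, rfl⟩)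
  have hagree : (g₀ ^ j) z = g z := S.agree hx (pow_mem hg₀ j) hg hj hzo
  have h1 : ((ν : Perm α) * g * (ν : Perm α)⁻¹) x
      = (((ν : Perm α) * g₀ * (ν : Perm α)⁻¹) ^ j) x := by
    rw [conj_pow, Perm.mul_apply, Perm.mul_apply, Perm.mul_apply, Perm.mul_apply]
    exact congrArg _ hagree.symm
  rw [h1, S.agree_pow (S.conj_P ν.2 hg₀) (pow_mem hg₀ l) hl.symm j, ← pow_mul, mul_comm, pow_mul]
  exact (S.agree_pow hg (pow_mem hg₀ j) hj.symm l).symm

theorem works_modEq {ν : Perm α} {l l' : ℕ} {x : α} (hx : x ∉ S.Γ) (h : S.Works ν l x)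
    (h' : S.Works ν l' x) : l ≡ l' [MOD S.p] := by
  obtain ⟨g, hg, hgx⟩ := S.exists_move hx
  exact S.pow_inj hg hgx ((h g hg).symm.trans (h' g hg))

theorem works_congr {ν : Perm α} {l l' : ℕ} {x : α} (hll : l ≡ l' [MOD S.p]) (h : S.Works ν l x) :
    S.Works ν l' x := fun g hg => by rw [h g hg, S.pow_congr hg hll]

/-- No element of small support. -/
def NoSmall : Prop := ∀ g ∈ S.G, g ≠ 1 → 2 * S.Γ.card ≤ g.support.card

/-- No element of `P` is a single cycle. -/
def NoCycle : Prop :=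
  ∀ g ∈ S.P, ∀ x, x ∉ S.Γ → (∀ y, y ∉ S.Γ → y ∉ S.orb x → g y = y) → g = 1

variable {S}

theorem eq_of_agree (hs : S.NoSmall) (hΓ : 0 < S.Γ.card) {u v : S.N}
    (h : ∀ x, x ∉ S.Γ → (u : Perm α) x = (v : Perm α) x) : u = v := by
  by_contra hne
  set w := (v : Perm α)⁻¹ * u with hw
  have hw1 : w ≠ 1 := fun h1 => hne (Subtype.ext (inv_mul_eq_one.1 h1).symm)
  have hsup : w.support ⊆ S.Γ := by
    intro x hx
    by_contra hxΓ
    rw [Perm.mem_support, hw, Perm.mul_apply, h x hxΓ] at hx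
    exact hx (by simp)
  have h1 := hs w (mul_mem (inv_mem v.2.1.1) u.2.1.1) hw1
  have h2 := Finset.card_le_card hsup
  omega

theorem A_comm (hs : S.NoSmall) (hΓ : 0 < S.Γ.card) {a b : S.N} (ha : a ∈ S.A) (hb : b ∈ S.A) :
    a * b = b * a := by
  refine eq_of_agree hs hΓ fun x hx => ?_
  obtain ⟨u, hu, hux⟩ := S.A_apply ha hx
  obtain ⟨v, hv, hvx⟩ := S.A_apply hb hx
  show (a : Perm α) ((b : Perm α) x) = (b : Perm α) ((a : Perm α) x)
  rw [hvx, hux, ← Perm.mul_apply, ← (S.mem_A.1 ha).2 v hv, Perm.mul_apply, hux,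
    ← Perm.mul_apply (b : Perm α), ← (S.mem_A.1 hb).2 u hu, Perm.mul_apply, hvx, ← Perm.mul_apply,
    S.P_comm hv hu, Perm.mul_apply]

theorem A_pow (hs : S.NoSmall) (hΓ : 0 < S.Γ.card) {a : S.N} (ha : a ∈ S.A) : a ^ S.p = 1 := by
  refine eq_of_agree hs hΓ fun x hx => ?_
  obtain ⟨u, hu, hux⟩ := S.A_apply ha hx
  have : ∀ j : ℕ, ((a : Perm α) ^ j) x = (u ^ j) x := by
    intro j
    induction j with
    | zero => rfl
    | succ j ih =>
      rw [pow_succ', Perm.mul_apply, ih, ← Perm.mul_apply, ← (S.mem_A.1 ha).2 _ (pow_mem hu j),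
        Perm.mul_apply, hux, ← Perm.mul_apply, ← pow_succ]
  rw [Subgroup.coe_pow, this, S.P_pow hu]
  rfl

theorem mem_A_of_conj (hs : S.NoSmall) {c d : S.N} (hc : c ∈ S.piO.ker) (hd : d ∈ S.piO.ker)
    (h : ∀ g ∈ S.P, (c : Perm α) * g * (c : Perm α)⁻¹ = d * g * (d : Perm α)⁻¹) :
    d⁻¹ * c ∈ S.A := by
  refine S.mem_A.2 ⟨mul_mem (inv_mem hd) hc, fun g hg => ?_⟩
  have h1 := congrArg (fun t => (d : Perm α)⁻¹ * t * c) (h g hg)
  simp only [Subgroup.coe_mul, Subgroup.coe_inv]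
  simpa [mul_assoc] using h1.symm

theorem commutator_mem_A (hs : S.NoSmall) {μ ν : S.N} (hμ : μ ∈ S.piO.ker) (hν : ν ∈ S.piO.ker) :
    (ν * μ)⁻¹ * (μ * ν) ∈ S.A := by
  refine mem_A_of_conj hs (mul_mem hμ hν) (mul_mem hν hμ) fun g hg => ?_
  have hm : ∀ {c : S.N}, c ∈ S.piO.ker → (c : Perm α) * g * (c : Perm α)⁻¹ ∈ S.P :=
    fun {c} _ => S.conj_P c.2 hg
  refine S.ext_P (hm (mul_mem hμ hν)) (hm (mul_mem hν hμ)) fun x hx => ?_
  obtain ⟨l, hl⟩ := S.exists_works hμ hx
  obtain ⟨l', hl'⟩ := S.exists_works hν hx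
  simp only [Subgroup.coe_mul, mul_inv_rev]
  rw [show (μ : Perm α) * ν * g * ((ν : Perm α)⁻¹ * (μ : Perm α)⁻¹)
      = μ * (ν * g * (ν : Perm α)⁻¹) * (μ : Perm α)⁻¹ by group,
    show (ν : Perm α) * μ * g * ((μ : Perm α)⁻¹ * (ν : Perm α)⁻¹)
      = ν * (μ * g * (μ : Perm α)⁻¹) * (ν : Perm α)⁻¹ by group,
    hl _ (S.conj_P ν.2 hg), hl' _ (S.conj_P μ.2 hg),
    S.agree_pow (S.conj_P ν.2 hg) (pow_mem hg l') (hl' g hg) l,
    S.agree_pow (S.conj_P μ.2 hg) (pow_mem hg l) (hl g hg) l', ← pow_mul, ← pow_mul, mul_comm]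

theorem scalar (hcy : S.NoCycle) (hk3 : S.k ≤ 3) {ν : S.N} (hν : ν ∈ S.piO.ker) :
    ∃ l : ℕ, ∀ g ∈ S.P, (ν : Perm α) * g * (ν : Perm α)⁻¹ = g ^ l := by
  have hne : S.orbs.Nonempty := Finset.card_pos.1 (by rw [S.card_orbs]; exact S.hk)
  -- three orbit representatives, possibly repeated
  obtain ⟨x, hx, hxcov⟩ : ∃ x : Fin 3 → α, (∀ i, x i ∉ S.Γ) ∧
      ∀ y, y ∉ S.Γ → ∃ i, y ∈ S.orb (x i) := by
    let e := S.orbs.equivFin
    have hpick : ∀ O : {O // O ∈ S.orbs}, ∃ y, y ∉ S.Γ ∧ S.orb y = O.1 := fun O => by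
      obtain ⟨y, hy, hyO⟩ := Finset.mem_image.1 O.2
      exact ⟨y, Finset.mem_compl.1 hy, hyO⟩
    choose f hf hfO using hpick
    have hk0 : 0 < S.orbs.card := Finset.card_pos.2 hne
    refine ⟨fun i => f (e.symm ⟨min i.1 (S.orbs.card - 1), by omega⟩), fun i => hf _, fun y hy => ?_⟩
    set O : {O // O ∈ S.orbs} := ⟨S.orb y, Finset.mem_image_of_mem _ (Finset.mem_compl.2 hy)⟩
    have hlt : (e O).1 < 3 := lt_of_lt_of_le (e O).2 (by rw [S.card_orbs]; exact hk3)
    refine ⟨⟨(e O).1, hlt⟩, ?_⟩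
    have : (⟨min (e O).1 (S.orbs.card - 1), by omega⟩ : Fin S.orbs.card) = e O :=
      Fin.ext (by have := (e O).2; simp only; omega)
    simp only [this, Equiv.symm_apply_apply, hfO]
    exact S.self_mem_orb y
  choose l hl using fun i => S.exists_works hν (hx i)
  have hfix : ∀ i, ∀ h ∈ S.P, h (x i) = x i → ∀ y ∈ S.orb (x i), h y = y :=
    fun i h hh hhx y hy => S.fix_orb (hx i) hh hhx hy
  have hsingle : ∀ h ∈ S.P, h (x 0) = x 0 → h (x 1) = x 1 → h = 1 := fun h hh h0 h1 =>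
    hcy h hh (x 2) (hx 2) fun y hy hy2 => by
      obtain ⟨i, hi⟩ := hxcov y hy
      fin_cases i
      · exact hfix 0 h hh h0 y hi
      · exact hfix 1 h hh h1 y hi
      · exact absurd hi hy2
  have hsingle0 : ∀ h ∈ S.P, h (x 0) = x 0 → h (x 2) = x 2 → h = 1 := fun h hh h0 h1 =>
    hcy h hh (x 1) (hx 1) fun y hy hy2 => by
      obtain ⟨i, hi⟩ := hxcov y hy
      fin_cases i
      · exact hfix 0 h hh h0 y hi
      · exact absurd hi hy2
      · exact hfix 2 h hh h1 y hi
  have hsingle1 : ∀ h ∈ S.P, h (x 1) = x 1 → h (x 2) = x 2 → h = 1 := fun h hh h0 h1 =>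
    hcy h hh (x 0) (hx 0) fun y hy hy2 => by
      obtain ⟨i, hi⟩ := hxcov y hy
      fin_cases i
      · exact absurd hi hy2
      · exact hfix 1 h hh h0 y hi
      · exact hfix 2 h hh h1 y hi
  -- if only the identity fixes `x i`, the exponent at `x i` is global
  have hA : ∀ i, (∀ h ∈ S.P, h (x i) = x i → h = 1) →
      ∀ g ∈ S.P, (ν : Perm α) * g * (ν : Perm α)⁻¹ = g ^ l i := by
    intro i hi g hg
    have h1 := hi _ (mul_mem (inv_mem (pow_mem hg (l i))) (S.conj_P ν.2 hg)) (by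
      rw [Perm.mul_apply, hl i g hg]; simp)
    exact (inv_mul_eq_one.1 h1).symm
  by_cases h0 : ∀ h ∈ S.P, h (x 0) = x 0 → h = 1
  · exact ⟨_, hA 0 h0⟩
  by_cases h1 : ∀ h ∈ S.P, h (x 1) = x 1 → h = 1
  · exact ⟨_, hA 1 h1⟩
  push Not at h0 h1
  obtain ⟨a, ha, hax, ha1⟩ := h0
  obtain ⟨b, hb, hbx, hb1⟩ := h1
  -- an element fixing `x i` is moved to its `l j`-th power, whence `l j ≡ l m`
  have step : ∀ (i j m : Fin 3) (h : Perm α), h ∈ S.P → h (x i) = x i → h (x m) ≠ x m →
      (∀ u ∈ S.P, u (x i) = x i → u (x j) = x j → u = 1) → l j ≡ l m [MOD S.p] := by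
    intro i j m h hh hhi hhm hs'
    have hpow : ∀ k : ℕ, (h ^ k) (x i) = x i := by
      intro k
      induction k with
      | zero => rfl
      | succ k ih => rw [pow_succ, Perm.mul_apply, hhi, ih]
    have h2 := hs' _ (mul_mem (inv_mem (pow_mem hh (l j))) (S.conj_P ν.2 hh))
      (by rw [Perm.mul_apply, hl i h hh, hpow, Perm.inv_eq_iff_eq, hpow])
      (by rw [Perm.mul_apply, hl j h hh]; simp)
    have h3 := congrArg (fun f : Perm α => f (x m)) (inv_mul_eq_one.1 h2)
    simp only [hl m h hh] at h3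
    exact S.pow_inj hh hhm h3
  have e12 : l 1 ≡ l 2 [MOD S.p] := step 0 1 2 a ha hax (fun h => ha1 (hsingle0 a ha hax h)) hsingle
  have e02 : l 0 ≡ l 2 [MOD S.p] := step 1 0 2 b hb hbx (fun h => hb1 (hsingle1 b hb hbx h))
    (fun u hu h1 h0 => hsingle u hu h0 h1)
  refine ⟨l 2, fun g hg => S.ext_P (S.conj_P ν.2 hg) (pow_mem hg _) fun y hy => ?_⟩
  obtain ⟨i, hi⟩ := hxcov y hy
  have hcongr : l i ≡ l 2 [MOD S.p] := by
    fin_cases i
    · exact e02
    · exact e12
    · exact Nat.ModEq.refl _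
  exact S.works_congr hcongr (S.works_orb ν.2 (hl i) hi) g hg

/-- The exceptional configuration `n = 9`, `p = 3`. -/
theorem nine (hs : S.NoSmall) (hr : S.Γ.card = 3) (hp3 : S.p = 3) (hk2 : S.k = 2) {y : S.N}
    (hy : y ∈ S.A) : S.rho y = 1 := by
  classical
  have hn : Fintype.card α = 9 := by rw [S.hcard, hr, hp3, hk2]
  have hsup : ∀ g ∈ S.G, g ≠ 1 → 6 ≤ g.support.card := fun g hg h1 => by
    have := hs g hg h1; omega
  have hsemi : ∀ g ∈ S.H, ∀ x, x ∉ S.Γ → g x = x → g = 1 := by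
    intro g hg x hx hgx
    by_contra h1
    have h2 := hsup g (S.mem_H.1 hg).1 h1
    have hsub : g.support ⊆ (insert x S.Γ)ᶜ := by
      intro z hz
      rw [Perm.mem_support] at hz
      simp only [Finset.mem_compl, Finset.mem_insert, not_or]
      exact ⟨fun e => hz (e ▸ hgx), fun e => hz ((S.mem_H.1 hg).2 z e)⟩
    have h3 := Finset.card_le_card hsub
    rw [Finset.card_compl, Finset.card_insert_of_notMem hx, hn, hr] at h3
    omega
  obtain ⟨a, b, c, hab, hac, hbc, hΓ⟩ := Finset.card_eq_three.1 hr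
  obtain ⟨x, hx⟩ : ∃ x, x ∉ S.Γ := by
    obtain ⟨x, -, hx⟩ := Finset.exists_mem_notMem_of_card_lt_card (s := S.Γ) (t := Finset.univ)
      (by rw [Finset.card_univ]; omega)
    exact ⟨x, hx⟩
  have hH6 : Nat.card S.H = 6 := by
    have h1 := S.index_stab hx
    rw [show MulAction.stabilizer S.H x = ⊥ from (Subgroup.eq_bot_iff_forall _).2 fun g hg =>
      Subtype.ext (hsemi g g.2 x hx hg), Subgroup.index_bot, hk2, hp3] at h1
    exact h1
  -- the stabiliser of two points
  set K := S.G ⊓ fixingSubgroup (Perm α) ({a, b} : Set α) with hK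
  have hmemK : ∀ g, g ∈ K ↔ g ∈ S.G ∧ g a = a ∧ g b = b := fun g => by
    simp [hK, mem_fixingSubgroup_iff]
  have hHK : S.H ≤ K := fun g hg => (hmemK g).2 ⟨(S.mem_H.1 hg).1,
    (S.mem_H.1 hg).2 a (by simp [hΓ]), (S.mem_H.1 hg).2 b (by simp [hΓ])⟩
  have hle4 : S.Γ.card + 1 ≤ Fintype.card α := by omega
  have hidx : (MulAction.stabilizer K c).index = 7 := by
    rw [MulAction.index_stabilizer]
    have h : MulAction.orbit K c = ((({a, b} : Finset α))ᶜ : Finset α) := by
      ext z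
      simp only [Finset.coe_compl, Set.mem_compl_iff, Finset.mem_coe, Finset.mem_insert,
        Finset.mem_singleton, not_or]
      constructor
      · rintro ⟨⟨g, hg⟩, rfl⟩
        refine ⟨fun h => hac (g.injective (((hmemK g).1 hg).2.1.trans h.symm)), fun h => hbc ?_⟩
        exact g.injective (((hmemK g).1 hg).2.2.trans h.symm)
      · rintro ⟨hza, hzb⟩
        obtain ⟨g, hg, hge⟩ := CfsgLib.Jordan.exists_map_le hle4 S.htrans {a, b, c}
          (Finset.card_le_three.trans (by omega)) (Equiv.swap c z)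
        refine ⟨⟨g, (hmemK g).2 ⟨hg, ?_, ?_⟩⟩, ?_⟩
        · rw [hge a (by simp), Equiv.swap_apply_of_ne_of_ne hac (Ne.symm hza)]
        · rw [hge b (by simp), Equiv.swap_apply_of_ne_of_ne hbc (Ne.symm hzb)]
        · show g c = z
          rw [hge c (by simp), Equiv.swap_apply_left]
    rw [h, Set.ncard_coe_finset, Finset.card_compl, hn, Finset.card_pair hab]
  have hstab : MulAction.stabilizer K c = S.H.subgroupOf K := by
    ext ⟨g, hg⟩
    rw [MulAction.mem_stabilizer_iff, Subgroup.mem_subgroupOf, S.mem_H, hΓ]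
    have h := (hmemK g).1 hg
    show g c = c ↔ _
    simp [h.1, h.2.1, h.2.2]
  have hK42 : Nat.card K = 42 := by
    have h1 := Subgroup.card_mul_index (MulAction.stabilizer K c)
    rw [hidx, hstab, Nat.card_congr (Subgroup.subgroupOfEquivOfLe hHK).toEquiv, hH6] at h1
    omega
  have : Fact (Nat.Prime 7) := ⟨by norm_num⟩
  obtain ⟨σ, hσ⟩ := exists_prime_orderOf_dvd_card' (G := K) 7 (by rw [hK42]; norm_num)
  obtain ⟨Q, hQ⟩ := (IsPGroup.of_card (p := 7) (G := Subgroup.zpowers σ) (n := 1)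
    (by rw [Nat.card_zpowers, hσ, pow_one])).exists_le_sylow
  have hQc : Nat.card Q = 7 := by
    rw [Q.card_eq_multiplicity, hK42, show Nat.factorization 42 7 = 1 from by
      rw [show (42 : ℕ) = 7 ^ 1 * 6 by norm_num, Nat.factorization_mul (by norm_num) (by norm_num),
        Finsupp.add_apply, Nat.Prime.factorization_pow (by norm_num),
        Nat.factorization_eq_zero_of_not_dvd (by norm_num : ¬ 7 ∣ 6)]
      simp]
    norm_num
  have hQeq : Subgroup.zpowers σ = (Q : Subgroup K) :=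
    Subgroup.eq_of_le_of_card_ge hQ (by rw [Nat.card_zpowers, hσ, hQc])
  have hQn : (Q : Subgroup K).Normal := by
    have h1 : (Q : Subgroup K).index = 6 := by
      have := Subgroup.card_mul_index (Q : Subgroup K)
      rw [hK42, hQc] at this
      omega
    have h2 := Q.card_dvd_index
    rw [h1] at h2
    have h3 := card_sylow_modEq_one 7 K
    have h4 : Nat.card (Sylow 7 K) = 1 := by
      have := Nat.le_of_dvd (by norm_num) h2
      interval_cases h : Nat.card (Sylow 7 K) <;> simp_all [Nat.ModEq]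
    have : Subsingleton (Sylow 7 K) := (Nat.card_eq_one_iff_unique.1 h4).1
    exact Q.normal_of_subsingleton
  have hconj : ∀ u : K, ∃ i : ℤ, u * σ * u⁻¹ = σ ^ i := fun u => by
    have h := hQn.conj_mem σ (hQ (Subgroup.mem_zpowers σ)) u
    rw [← hQeq] at h
    obtain ⟨i, hi⟩ := h
    exact ⟨i, hi.symm⟩
  set σ' : Perm α := (σ : Perm α) with hσ'
  have hcyc : σ'.IsCycle ∧ σ'.support = ({a, b} : Finset α)ᶜ := by
    have ho : orderOf σ' = 7 := by rw [hσ', Subgroup.orderOf_coe]; exact hσ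
    have hsub : σ'.support ⊆ ({a, b} : Finset α)ᶜ := by
      intro z hz
      rw [Perm.mem_support] at hz
      simp only [Finset.mem_compl, Finset.mem_insert, Finset.mem_singleton, not_or]
      exact ⟨fun e => hz (e ▸ ((hmemK _).1 σ.2).2.1), fun e => hz (e ▸ ((hmemK _).1 σ.2).2.2)⟩
    have hc := Finset.card_le_card hsub
    rw [Finset.card_compl, hn, Finset.card_pair hab] at hc
    have hcy : σ'.IsCycle := Perm.isCycle_of_prime_order (by rw [ho]; norm_num) (by rw [ho]; omega)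
    refine ⟨hcy, Finset.eq_of_subset_of_card_le hsub ?_⟩
    rw [Finset.card_compl, hn, Finset.card_pair hab, ← hcy.orderOf, ho]
  have hHcomm : ∀ u ∈ S.H, ∀ v ∈ S.H, u * v = v * u := by
    intro u hu v hv
    obtain ⟨i, hi⟩ := hconj ⟨u, hHK hu⟩
    obtain ⟨j, hj⟩ := hconj ⟨v, hHK hv⟩
    have hi' : u * σ' * u⁻¹ = σ' ^ i := by simpa using congrArg Subtype.val hi
    have hj' : v * σ' * v⁻¹ = σ' ^ j := by simpa using congrArg Subtype.val hj
    have hc : u * v * σ' * (u * v)⁻¹ = v * u * σ' * (v * u)⁻¹ := by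
      rw [show u * v * σ' * (u * v)⁻¹ = u * (v * σ' * v⁻¹) * u⁻¹ by group,
        show v * u * σ' * (v * u)⁻¹ = v * (u * σ' * u⁻¹) * v⁻¹ by group, hj', hi',
        ← conj_zpow, ← conj_zpow, hi', hj', ← zpow_mul, ← zpow_mul, mul_comm]
    set w := (v * u)⁻¹ * (u * v) with hw
    have hwH : w ∈ S.H := mul_mem (inv_mem (mul_mem hv hu)) (mul_mem hu hv)
    have hwσ : Commute w σ' := by
      show w * σ' = σ' * w
      have h2 := congrArg (fun t => (v * u)⁻¹ * t * (u * v)) hc
      simpa [hw, mul_assoc] using h2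
    have hcs : ∀ z ∈ σ'.support, w z = z := by
      intro z hz
      have hcsup : c ∈ σ'.support := by rw [hcyc.2]; simp [hac.symm, hbc.symm]
      obtain ⟨m, hm⟩ := hcyc.1.sameCycle (Perm.mem_support.1 hcsup) (Perm.mem_support.1 hz)
      rw [← hm, ← Perm.mul_apply, (hwσ.zpow_right m).eq, Perm.mul_apply,
        (S.mem_H.1 hwH).2 c (by simp [hΓ])]
    have hw1 : w = 1 := by
      refine hsemi w hwH x hx (hcs x ?_)
      rw [hcyc.2, Finset.mem_compl]
      intro h
      exact hx (by rw [hΓ]; simp only [Finset.mem_insert, Finset.mem_singleton] at h ⊢; tauto)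
    exact (inv_mul_eq_one.1 hw1).symm
  -- the involution of `H`
  have : Fact (Nat.Prime 2) := ⟨Nat.prime_two⟩
  obtain ⟨⟨h, hh⟩, hh2⟩ := exists_prime_orderOf_dvd_card' (G := S.H) 2 (by rw [hH6]; norm_num)
  have hh2' : h * h = 1 := by
    have := pow_orderOf_eq_one (⟨h, hh⟩ : S.H)
    rw [hh2, pow_two] at this
    exact congrArg Subtype.val this
  have hh1 : h ≠ 1 := fun e => by
    subst e
    rw [show (⟨(1 : Perm α), hh⟩ : S.H) = 1 from rfl, orderOf_one] at hh2
    norm_num at hh2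
  have huniq : ∀ f ∈ S.H, f * f = 1 → f ≠ 1 → f = h := by
    intro f hf hf2 hf1
    by_contra hne
    let V : Subgroup S.H :=
      { carrier := {z | (z : Perm α) = 1 ∨ (z : Perm α) = f ∨ (z : Perm α) = h ∨ (z : Perm α) = f * h}
        one_mem' := Or.inl rfl
        inv_mem' := by
          have e1 : f⁻¹ = f := inv_eq_of_mul_eq_one_right hf2
          have e2 : h⁻¹ = h := inv_eq_of_mul_eq_one_right hh2'
          intro z hz
          simp only [Set.mem_setOf_eq, Subgroup.coe_inv] at hz ⊢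
          rcases hz with e | e | e | e <;> rw [e]
          · left; exact inv_one
          · right; left; exact e1
          · right; right; left; exact e2
          · right; right; right; rw [mul_inv_rev, e1, e2, hHcomm h hh f hf]
        mul_mem' := by
          have hc := hHcomm h hh f hf
          have e1 : f * (f * h) = h := by rw [← mul_assoc, hf2, one_mul]
          have e2 : h * (f * h) = f := by rw [← mul_assoc, hc, mul_assoc, hh2', mul_one]
          have e3 : f * h * f = h := by rw [mul_assoc, hc, e1]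
          have e4 : f * h * h = f := by rw [mul_assoc, hh2', mul_one]
          have e5 : f * h * (f * h) = 1 := by rw [mul_assoc, e2, hf2]
          intro z w hz hw
          simp only [Set.mem_setOf_eq, Subgroup.coe_mul] at hz hw ⊢
          rcases hz with e | e | e | e <;> rcases hw with e' | e' | e' | e' <;> rw [e, e'] <;>
            simp [hf2, hh2', hc, e1, e2, e3, e4, e5] }
    have hV : Nat.card V = 4 := by
      have hinj : Function.Injective (fun z : S.H => (z : Perm α)) := Subtype.val_injective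
      have himg : (fun z : S.H => (z : Perm α)) '' (V : Set S.H) = {1, f, h, f * h} := by
        ext z
        constructor
        · rintro ⟨w, hw, rfl⟩; exact hw
        · intro hz
          have hzH : z ∈ S.H := by
            rcases hz with rfl | rfl | rfl | rfl
            exacts [one_mem _, hf, hh, mul_mem hf hh]
          exact ⟨⟨z, hzH⟩, hz, rfl⟩
      rw [show Nat.card V = (V : Set S.H).ncard from Nat.card_coe_set_eq _,
        ← Set.ncard_image_of_injective _ hinj, himg]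
      have d1 : f * h ≠ 1 := fun e => hne (by
        rw [← inv_eq_of_mul_eq_one_right hh2']; exact eq_inv_of_mul_eq_one_left e)
      have d2 : f * h ≠ f := fun e => hh1 (mul_eq_left.1 e)
      have d3 : f * h ≠ h := fun e => hf1 (mul_eq_right.1 e)
      rw [Set.ncard_insert_of_notMem (by simp [hf1.symm, hh1.symm, d1.symm]),
        Set.ncard_insert_of_notMem (by simp [hne, d2.symm]), Set.ncard_pair d3.symm]
    have := Subgroup.card_subgroup_dvd_card V
    rw [hV, hH6] at this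
    norm_num at this
  have hyH : ∀ f ∈ S.H, (y : Perm α) * f * (y : Perm α)⁻¹ ∈ S.H := fun f hf =>
    S.mem_H.2 ⟨mul_mem (mul_mem y.2.1.1 (S.mem_H.1 hf).1) (inv_mem y.2.1.1), fun z hz => by
      have h1 : (y : Perm α)⁻¹ z ∈ S.Γ := (S.mem_Γ_iff (inv_mem y.2)).2 hz
      rw [Perm.mul_apply, Perm.mul_apply, (S.mem_H.1 hf).2 _ h1]
      simp⟩
  have hyh : (y : Perm α) * h = h * y := by
    have h1 := huniq _ (hyH h hh) (by
      rw [show (y : Perm α) * h * (y : Perm α)⁻¹ * (y * h * (y : Perm α)⁻¹)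
        = y * (h * h) * (y : Perm α)⁻¹ by group, hh2']; group) (fun e => hh1 (conj_eq_one_iff.1 e))
    exact mul_inv_eq_iff_eq_mul.1 h1
  obtain ⟨u, hu, hux⟩ := S.A_apply hy hx
  have hhx : h x ∉ S.orb x := by
    intro hc
    obtain ⟨g, hg, hgx⟩ := S.mem_orb.1 hc
    have h1 : h⁻¹ * g = 1 := hsemi _ (mul_mem (inv_mem hh) (S.P_le hg)) x hx (by simp [hgx])
    have h3 := S.P_pow hg
    rw [← inv_mul_eq_one.1 h1, hp3, pow_three, hh2', mul_one] at h3
    exact hh1 h3
  have hcov : ∀ z, z ∉ S.Γ → z ∈ S.orb x ∨ z ∈ S.orb (h x) := by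
    intro z hz
    by_contra hc
    push Not at hc
    have h1 : ({S.orb x, S.orb (h x), S.orb z} : Finset (Finset α)) ⊆ S.orbs := by
      intro O hO
      simp only [Finset.mem_insert, Finset.mem_singleton] at hO
      rcases hO with rfl | rfl | rfl <;> refine Finset.mem_image_of_mem _ (Finset.mem_compl.2 ?_)
      exacts [hx, S.notMem_of_H hh hx, hz]
    have h2 := Finset.card_le_card h1
    rw [S.card_orbs, hk2, Finset.card_eq_three.2 ⟨S.orb x, S.orb (h x), S.orb z,
      fun e => hhx (e ▸ S.self_mem_orb (h x)), fun e => hc.1 (e ▸ S.self_mem_orb z),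
      fun e => hc.2 (e ▸ S.self_mem_orb z), rfl⟩] at h2
    omega
  have heq : y = ⟨u, S.P_le_N hu⟩ := by
    refine eq_of_agree hs (by omega) fun z hz => ?_
    have hbase : ∀ w, (y : Perm α) w = u w → ∀ z ∈ S.orb w, (y : Perm α) z = u z := by
      intro w hw z hzw
      obtain ⟨v, hv, rfl⟩ := S.mem_orb.1 hzw
      rw [← Perm.mul_apply, ← (S.mem_A.1 hy).2 v hv, Perm.mul_apply, hw, ← Perm.mul_apply,
        S.P_comm hv hu, Perm.mul_apply]
    rcases hcov z hz with h1 | h1
    · exact hbase x hux z h1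
    · refine hbase (h x) ?_ z h1
      rw [← Perm.mul_apply, hyh, Perm.mul_apply, hux, ← Perm.mul_apply,
        ← hHcomm u (S.P_le hu) h hh, Perm.mul_apply]
  rw [heq]
  exact Equiv.ext fun z => Subtype.ext (S.P_fix hu z.2)

theorem absurd_of (hs : S.NoSmall) (hcy : S.NoCycle) (hkr : S.k < S.Γ.card) (hr : 3 ≤ S.Γ.card) :
    False := by
  classical
  have hΓ : 0 < S.Γ.card := by omega
  have hn : S.Γ.card + 1 ≤ Fintype.card α := by
    rw [S.hcard]
    have := Nat.le_mul_of_pos_left S.p (S.hk : 0 < S.k)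
    have := S.hp.two_le
    omega
  have hsurj := S.witt hn
  have hA1n : (S.A.map S.rho).Normal := S.A_normal.map _ hsurj
  have hM1n : (S.piO.ker.map S.rho).Normal := (inferInstance : S.piO.ker.Normal).map _ hsurj
  have hA1c : ∀ a ∈ S.A.map S.rho, ∀ b ∈ S.A.map S.rho, a * b = b * a := by
    rintro _ ⟨a, ha, rfl⟩ _ ⟨b, hb, rfl⟩
    rw [← map_mul, ← map_mul, A_comm hs hΓ ha hb]
  have hcardΓ : Fintype.card {x // x ∈ S.Γ} = S.Γ.card := Fintype.card_coe _
  suffices hker : S.piO.ker ≤ S.rho.ker by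
    have h1 := Subgroup.index_dvd_of_le hker
    rw [Subgroup.index_ker, Subgroup.index_ker, MonoidHom.range_eq_top.2 hsurj, Subgroup.card_top,
      Nat.card_perm, Nat.card_eq_finsetCard] at h1
    have h2 := h1.trans (Subgroup.card_subgroup_dvd_card S.piO.range)
    rw [Nat.card_perm, Nat.card_eq_finsetCard, S.card_orbs] at h2
    have h3 := Nat.le_of_dvd (Nat.factorial_pos _) h2
    have h4 := (Nat.factorial_lt S.hk).2 hkr
    omega
  suffices hM1 : S.piO.ker.map S.rho = ⊥ by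
    rwa [Subgroup.map_eq_bot_iff] at hM1
  by_cases h5 : 5 ≤ S.Γ.card
  · have hA1 : S.A.map S.rho = ⊥ := eq_bot_of_abelian_normal (by omega) _ hA1c
    refine eq_bot_of_abelian_normal (by omega) _ ?_
    rintro _ ⟨μ, hμ, rfl⟩ _ ⟨ν, hν, rfl⟩
    have h : S.rho ((ν * μ)⁻¹ * (μ * ν)) ∈ S.A.map S.rho := ⟨_, commutator_mem_A hs hμ hν, rfl⟩
    rw [hA1, Subgroup.mem_bot, map_mul, map_inv, inv_mul_eq_one] at h
    rw [← map_mul, ← map_mul, h]
  have hk3 : S.k ≤ 3 := by omega
  have hk2 : 2 ≤ S.k := by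
    by_contra h
    obtain ⟨x, -, hx⟩ := Finset.exists_mem_notMem_of_card_lt_card (s := S.Γ) (t := Finset.univ)
      (by rw [Finset.card_univ]; omega)
    obtain ⟨g, hg, hgx⟩ := S.exists_move hx
    have h1 := hcy g hg x hx fun z hz hzo => absurd ?_ hzo
    · rw [h1] at hgx; exact hgx rfl
    · have h2 : S.orbs.card ≤ 1 := by rw [S.card_orbs]; omega
      rw [← Finset.card_le_one.1 h2 _ (Finset.mem_image_of_mem _ (Finset.mem_compl.2 hz)) _
        (Finset.mem_image_of_mem _ (Finset.mem_compl.2 hx))]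
      exact S.self_mem_orb z
  have hA1 : S.A.map S.rho = ⊥ := by
    rw [Subgroup.eq_bot_iff_forall]
    rintro _ ⟨a, ha, rfl⟩
    by_contra hne
    have hpo : orderOf (S.rho a) = S.p := orderOf_eq_prime (by
      rw [← map_pow, A_pow hs hΓ ha, map_one]) hne
    have hdvd : S.p ∣ S.Γ.card.factorial := by
      have := orderOf_dvd_natCard (S.rho a)
      rwa [hpo, Nat.card_perm, Nat.card_eq_finsetCard] at this
    have hp4 := (S.hp.dvd_factorial).1 hdvd
    have hp3 : S.p = 3 := by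
      rcases (show S.p = 3 ∨ S.p = 4 by have := S.hkp; omega) with h | h
      · exact h
      · exact absurd (h ▸ S.hp) (by norm_num)
    by_cases hr3 : S.Γ.card = 3
    · exact hne (nine hs hr3 hp3 (by have := S.hkp; omega) ha)
    · have hsc : (S.rho a).support.card < Fintype.card {x // x ∈ S.Γ} := by
        obtain ⟨m, hm⟩ := Equiv.Perm.cycleType_prime_order (σ := S.rho a) (by rw [hpo]; exact S.hp)
        have hsum := (S.rho a).sum_cycleType
        rw [hm, Multiset.sum_replicate, hpo, hp3, smul_eq_mul] at hsum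
        have := Finset.card_le_univ (S.rho a).support
        omega
      obtain ⟨w, -, hw⟩ := Finset.exists_mem_notMem_of_card_lt_card
        (s := (S.rho a).support) (t := Finset.univ) (by rwa [Finset.card_univ])
      obtain ⟨u, hu⟩ : ∃ u, S.rho a u ≠ u := by
        by_contra h; push Not at h; exact hne (Equiv.ext h)
      rw [Perm.notMem_support] at hw
      refine not_commute_of_moved (M := S.A.map S.rho) hA1c ⟨a, ha, rfl⟩ (u := u) (w := w) ?_ ?_ hw hu
      · intro e; exact hu (e ▸ hw)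
      · intro e
        have h2 : w = u := (S.rho a).injective (hw.trans e)
        exact hu (h2 ▸ hw)
  rw [Subgroup.eq_bot_iff_forall]
  rintro _ ⟨ν, hν, rfl⟩
  refine eq_bot_of_central (by omega) fun f => ?_
  obtain ⟨n, rfl⟩ := hsurj f
  obtain ⟨l, hl⟩ := scalar hcy hk3 hν
  have hconjker : n * ν * n⁻¹ ∈ S.piO.ker := (inferInstance : S.piO.ker.Normal).conj_mem ν hν n
  have hA : ν⁻¹ * (n * ν * n⁻¹) ∈ S.A := by
    refine mem_A_of_conj hs hconjker hν fun g hg => ?_
    simp only [Subgroup.coe_mul, Subgroup.coe_inv, mul_inv_rev, inv_inv]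
    rw [hl g hg, show (n : Perm α) * ν * (n : Perm α)⁻¹ * g * (n * ((ν : Perm α)⁻¹ * (n : Perm α)⁻¹))
      = n * (ν * ((n : Perm α)⁻¹ * g * n) * (ν : Perm α)⁻¹) * (n : Perm α)⁻¹ by group,
      hl _ (S.conj_P' n.2 hg), ← conj_pow]
    group
  have h : S.rho (ν⁻¹ * (n * ν * n⁻¹)) ∈ S.A.map S.rho := ⟨_, hA, rfl⟩
  rw [hA1, Subgroup.mem_bot, map_mul, map_inv, inv_mul_eq_one, map_mul, map_mul, map_inv,
    eq_mul_inv_iff_mul_eq] at h
  exact h.symm

end Setting

theorem main (G : Subgroup (Perm α)) {k p r : ℕ} (hp : p.Prime)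
    (hn : Fintype.card α = k * p + r) (hk : 1 ≤ k) (hpk : k < p) (hrk : k < r)
    (hex : ¬ (k = 1 ∧ r = 2)) (hG : IsMultiplyPretransitive G α (r + 1)) :
    alternatingGroup α ≤ G := by
  classical
  have : Fact p.Prime := ⟨hp⟩
  have hkp : p ≤ k * p := Nat.le_mul_of_pos_left p hk
  have hp2 := hp.two_le
  have hr : 3 ≤ r := by omega
  obtain ⟨Γ, -, hΓ⟩ := Finset.exists_subset_card_eq (s := (Finset.univ : Finset α)) (n := r)
    (by rw [Finset.card_univ]; omega)
  let S : Setting α := ⟨G, Γ, p, k, hp, hk, hpk, by rw [hΓ]; exact hn, by rw [hΓ]; exact hG⟩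
  by_contra halt
  have hprim : IsPreprimitive G α := isPreprimitive_of_is_two_pretransitive
    (isMultiplyPretransitive_of_le (G := G) (α := α) (n := r + 1) (by omega)
      (by rw [Nat.card_eq_fintype_card]; omega))
  refine Setting.absurd_of (S := S) ?_ ?_ (by show k < Γ.card; omega) (by show 3 ≤ Γ.card; omega)
  · intro g hg hg1
    by_contra hlt
    refine halt (CfsgLib.Jordan.small_support (k := r + 1) (by omega) (by omega) hG hg hg1 ?_).2
    have : g.support.card < 2 * Γ.card := Nat.lt_of_not_le hlt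
    omega
  · intro g hg x hx hfix
    by_contra hg1
    have hord : orderOf g = p := orderOf_eq_prime (S.P_pow hg) hg1
    have hsub : g.support ⊆ S.orb x := by
      intro z hz
      rw [Perm.mem_support] at hz
      by_contra hzo
      by_cases hzΓ : z ∈ S.Γ
      · exact hz (S.P_fix hg hzΓ)
      · exact hz (hfix z hzΓ hzo)
    have hc := Finset.card_le_card hsub
    rw [S.card_orb hx] at hc
    have hc' : g.support.card ≤ p := hc
    have hcyc : g.IsCycle := Perm.isCycle_of_prime_order (by rw [hord]; exact hp) (by rw [hord]; omega)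
    exact halt (CfsgLib.Jordan.alternatingGroup_le_of_prime_cycle G hprim hp (by omega) hcyc
      (by rw [← hcyc.orderOf, hord]) (S.mem_H.1 (S.P_le hg)).1)

end Cfsg.Agent.TransBound
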