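import Mathlib
import Cfsg.Agent.Jordan.SmallSupport

/-!
A Sylow subgroup of an `r`-point stabiliser in an `(r+1)`-transitive group of degree `k * p + r`.
-/

set_option autoImplicit false

namespace Cfsg.Agent.TransBound

open MulAction Equiv

variable {α : Type*} [Fintype α] [DecidableEq α]

/-- The data. -/
structure Setting (α : Type*) [Fintype α] [DecidableEq α] where
  G : Subgroup (Perm α)
  Γ : Finset α
  p : ℕ
  k : ℕ
  hp : p.Prime
  hk : 1 ≤ k
  hkp : k < p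
  hcard : Fintype.card α = k * p + Γ.card
  htrans : IsMultiplyPretransitive G α (Γ.card + 1)

namespace Setting

variable (S : Setting α)

/-- The pointwise stabiliser of `Γ`. -/
def H : Subgroup (Perm α) := S.G ⊓ fixingSubgroup (Perm α) (S.Γ : Set α)

theorem mem_H {g : Perm α} : g ∈ S.H ↔ g ∈ S.G ∧ ∀ y ∈ S.Γ, g y = y := by
  simp [H, mem_fixingSubgroup_iff]

theorem notMem_of_H {g : Perm α} (hg : g ∈ S.H) {x : α} (hx : x ∉ S.Γ) : g x ∉ S.Γ := fun h =>
  hx (by
    have h1 := (S.mem_H.1 hg).2 _ h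
    rwa [← g.injective h1])

theorem H_transitive {x y : α} (hx : x ∉ S.Γ) (hy : y ∉ S.Γ) : ∃ g ∈ S.H, g x = y := by
  have hle : S.Γ.card + 1 ≤ Fintype.card α := by
    have := S.Γ.card_lt_iff_ne_univ.2 (fun h => hx (h ▸ Finset.mem_univ x))
    omega
  obtain ⟨g, hg, hgx⟩ := CfsgLib.Jordan.exists_map_le hle S.htrans (insert x S.Γ)
    (by rw [Finset.card_insert_of_notMem hx]) (Equiv.swap x y)
  refine ⟨g, S.mem_H.2 ⟨hg, fun z hz => ?_⟩, ?_⟩
  · rw [hgx z (Finset.mem_insert_of_mem hz)]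
    exact Equiv.swap_apply_of_ne_of_ne (fun h => hx (h ▸ hz)) (fun h => hy (h ▸ hz))
  · rw [hgx x (Finset.mem_insert_self x _), Equiv.swap_apply_left]

theorem index_stab {x : α} (hx : x ∉ S.Γ) :
    (MulAction.stabilizer S.H x).index = S.k * S.p := by
  rw [MulAction.index_stabilizer]
  have h : MulAction.orbit S.H x = ((S.Γᶜ : Finset α) : Set α) := by
    ext y
    simp only [Finset.coe_compl, Set.mem_compl_iff, Finset.mem_coe]
    constructor
    · rintro ⟨⟨g, hg⟩, rfl⟩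
      exact S.notMem_of_H hg hx
    · intro hy
      obtain ⟨g, hg, hgx⟩ := S.H_transitive hx hy
      exact ⟨⟨g, hg⟩, hgx⟩
  rw [h, Set.ncard_coe_finset, Finset.card_compl, S.hcard]
  omega

instance : Fact S.p.Prime := ⟨S.hp⟩

/-- A Sylow subgroup of the stabiliser, as a group of permutations. -/
noncomputable def P : Subgroup (Perm α) :=
  ((default : Sylow S.p S.H) : Subgroup S.H).map S.H.subtype

theorem P_le : S.P ≤ S.H := Subgroup.map_subtype_le _

theorem P_isPGroup : IsPGroup S.p S.P := (default : Sylow S.p S.H).isPGroup'.map _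

theorem P_fix {g : Perm α} (hg : g ∈ S.P) {y : α} (hy : y ∈ S.Γ) : g y = y :=
  (S.mem_H.1 (S.P_le hg)).2 y hy

open scoped Classical in
/-- The orbit of a point under `P`. -/
noncomputable def orb (x : α) : Finset α := Finset.univ.filter (fun y => ∃ g ∈ S.P, g x = y)

theorem mem_orb {x y : α} : y ∈ S.orb x ↔ ∃ g ∈ S.P, g x = y := by simp [orb]

theorem self_mem_orb (x : α) : x ∈ S.orb x := S.mem_orb.2 ⟨1, one_mem _, rfl⟩

theorem orb_eq {x y : α} (h : y ∈ S.orb x) : S.orb y = S.orb x := by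
  obtain ⟨u, hu, rfl⟩ := S.mem_orb.1 h
  ext z
  rw [S.mem_orb, S.mem_orb]
  constructor
  · rintro ⟨g, hg, rfl⟩; exact ⟨g * u, mul_mem hg hu, rfl⟩
  · rintro ⟨g, hg, rfl⟩; exact ⟨g * u⁻¹, mul_mem hg (inv_mem hu), by simp⟩

theorem notMem_of_orb {x y : α} (hx : x ∉ S.Γ) (h : y ∈ S.orb x) : y ∉ S.Γ := by
  obtain ⟨u, hu, rfl⟩ := S.mem_orb.1 h
  exact S.notMem_of_H (S.P_le hu) hx

theorem card_orb {x : α} (hx : x ∉ S.Γ) : (S.orb x).card = S.p := by
  have heq : MulAction.orbit S.P x = (S.orb x : Set α) := by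
    ext y
    rw [Finset.mem_coe, S.mem_orb]
    exact ⟨fun ⟨⟨g, hg⟩, h⟩ => ⟨g, hg, h⟩, fun ⟨g, hg, h⟩ => ⟨⟨g, hg⟩, h⟩⟩
  obtain ⟨j, hj⟩ := S.P_isPGroup.card_orbit x
  rw [heq, Nat.card_coe_set_eq, Set.ncard_coe_finset] at hj
  have hle : (S.orb x).card ≤ S.k * S.p := by
    have hsub : S.orb x ⊆ S.Γᶜ := fun y hy => Finset.mem_compl.2 (S.notMem_of_orb hx hy)
    have := Finset.card_le_card hsub
    rw [Finset.card_compl, S.hcard] at this
    omega
  have hj2 : j < 2 := by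
    by_contra h
    have h1 : S.p ^ 2 ≤ S.p ^ j := Nat.pow_le_pow_right S.hp.pos (by omega)
    have h2 := S.hkp
    have : S.k * S.p < S.p * S.p := Nat.mul_lt_mul_of_pos_right h2 S.hp.pos
    rw [pow_two] at h1
    omega
  rcases Nat.eq_zero_or_pos j with h0 | h0
  swap
  · rw [hj, show j = 1 by omega, pow_one]
  exfalso
  rw [h0, pow_zero, Finset.card_eq_one] at hj
  obtain ⟨a, ha⟩ := hj
  have hfix : ∀ g ∈ S.P, g x = x := fun g hg => by
    have h1 : g x ∈ S.orb x := S.mem_orb.2 ⟨g, hg, rfl⟩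
    have h2 := S.self_mem_orb x
    rw [ha, Finset.mem_singleton] at h1 h2
    rw [h1, h2]
  have hle' : ((default : Sylow S.p S.H) : Subgroup S.H) ≤ MulAction.stabilizer S.H x :=
    fun g hg => hfix _ ⟨g, hg, rfl⟩
  have h3 := Subgroup.index_dvd_of_le hle'
  rw [S.index_stab hx] at h3
  exact (default : Sylow S.p S.H).not_dvd_index ((dvd_mul_left _ _).trans h3)

/-- The action on one orbit is that of a group of prime order. -/
theorem orb_action {x : α} (hx : x ∉ S.Γ) {y : α} (hy : y ∈ S.orb x) {g h : Perm α} (hg : g ∈ S.P)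
    (hh : h ∈ S.P) : g (h y) = h (g y) ∧ (g ^ S.p) y = y := by
  have hpres : ∀ u ∈ S.P, ∀ z, u z ∈ S.orb x ↔ z ∈ S.orb x := by
    intro u hu z
    constructor
    · intro h
      obtain ⟨v, hv, hvz⟩ := S.mem_orb.1 h
      exact S.mem_orb.2 ⟨u⁻¹ * v, mul_mem (inv_mem hu) hv, by simp [hvz]⟩
    · intro h
      obtain ⟨v, hv, rfl⟩ := S.mem_orb.1 h
      exact S.mem_orb.2 ⟨u * v, mul_mem hu hv, rfl⟩
  let φ : S.P →* Perm {z // z ∈ S.orb x} :=
    { toFun := fun u => (u : Perm α).subtypePerm (fun z => hpres u u.2 z)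
      map_one' := by ext z; rfl
      map_mul' := fun u v => by ext z; rfl }
  obtain ⟨j, hj⟩ := IsPGroup.iff_card.1
    (S.P_isPGroup.of_surjective φ.rangeRestrict φ.rangeRestrict_surjective)
  have hdvd : Nat.card φ.range ∣ S.p.factorial := by
    have := φ.range.card_subgroup_dvd_card
    rwa [Nat.card_perm, Nat.card_eq_finsetCard, S.card_orb hx] at this
  have hj1 : j ≤ 1 := by
    by_contra h
    exact CfsgLib.Jordan.not_sq_dvd_factorial S.hp
      ((pow_dvd_pow S.p (by omega : 2 ≤ j)).trans (hj ▸ hdvd))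
  have hkey : ∀ u v : φ.range, u * v = v * u ∧ u ^ S.p = 1 := by
    intro u v
    refine ⟨?_, ?_⟩
    · rcases Nat.le_one_iff_eq_zero_or_eq_one.1 hj1 with rfl | rfl
      · rw [pow_zero] at hj
        have : Subsingleton φ.range := (Nat.card_eq_one_iff_unique.1 hj).1
        exact Subsingleton.elim _ _
      · rw [pow_one] at hj
        have : IsCyclic φ.range := isCyclic_of_prime_card hj
        let _ : CommGroup φ.range := IsCyclic.commGroup
        exact mul_comm u v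
    · refine orderOf_dvd_iff_pow_eq_one.1 ((orderOf_dvd_natCard u).trans ?_)
      rw [hj]
      exact (pow_dvd_pow _ hj1).trans (by rw [pow_one])
  have h1 := hkey ⟨φ ⟨g, hg⟩, ⟨_, rfl⟩⟩ ⟨φ ⟨h, hh⟩, ⟨_, rfl⟩⟩
  refine ⟨congrArg (fun w : φ.range => ((((w : Perm {z // z ∈ S.orb x})) ⟨y, hy⟩ : _) : α)) h1.1, ?_⟩
  have h2 : φ (⟨g, hg⟩ ^ S.p) = 1 := by
    rw [map_pow]; exact congrArg Subtype.val h1.2
  exact congrArg (fun w : Perm {z // z ∈ S.orb x} => ((w ⟨y, hy⟩ : _) : α)) h2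

theorem fix_orb {x : α} (hx : x ∉ S.Γ) {g : Perm α} (hg : g ∈ S.P) (hgx : g x = x) {y : α}
    (hy : y ∈ S.orb x) : g y = y := by
  obtain ⟨u, hu, rfl⟩ := S.mem_orb.1 hy
  rw [(S.orb_action hx (S.self_mem_orb x) hg hu).1, hgx]

theorem agree {x : α} (hx : x ∉ S.Γ) {g h : Perm α} (hg : g ∈ S.P) (hh : h ∈ S.P) (he : g x = h x)
    {y : α} (hy : y ∈ S.orb x) : g y = h y := by
  have h1 := S.fix_orb hx (mul_mem (inv_mem hh) hg) (by simp [he]) hy
  rw [Perm.mul_apply] at h1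
  exact Perm.inv_eq_iff_eq.1 h1

theorem ext_P {g h : Perm α} (hg : g ∈ S.P) (hh : h ∈ S.P) (he : ∀ x ∉ S.Γ, g x = h x) : g = h := by
  refine Equiv.ext fun x => ?_
  by_cases hx : x ∈ S.Γ
  · rw [S.P_fix hg hx, S.P_fix hh hx]
  · exact he x hx

theorem P_comm {g h : Perm α} (hg : g ∈ S.P) (hh : h ∈ S.P) : g * h = h * g :=
  S.ext_P (mul_mem hg hh) (mul_mem hh hg) fun x hx => (S.orb_action hx (S.self_mem_orb x) hg hh).1

theorem P_pow {g : Perm α} (hg : g ∈ S.P) : g ^ S.p = 1 :=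
  S.ext_P (pow_mem hg _) (one_mem _) fun x hx => (S.orb_action hx (S.self_mem_orb x) hg hg).2

theorem agree_pow {x : α} {g h : Perm α} (hg : g ∈ S.P) (hh : h ∈ S.P) (he : g x = h x) :
    ∀ l : ℕ, (g ^ l) x = (h ^ l) x := by
  intro l
  induction l with
  | zero => rfl
  | succ l ih =>
    rw [pow_succ', Perm.mul_apply, ih, ← Perm.mul_apply, S.P_comm hg (pow_mem hh l), Perm.mul_apply,
      he, ← Perm.mul_apply, ← pow_succ]

theorem exists_move {x : α} (hx : x ∉ S.Γ) : ∃ g ∈ S.P, g x ≠ x := by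
  by_contra h
  push Not at h
  have : S.orb x = {x} := Finset.eq_singleton_iff_unique_mem.2
    ⟨S.self_mem_orb x, fun y hy => by obtain ⟨g, hg, rfl⟩ := S.mem_orb.1 hy; exact h g hg⟩
  have h1 := S.card_orb hx
  rw [this, Finset.card_singleton] at h1
  exact S.hp.ne_one h1.symm

theorem pow_inj {x : α} {g : Perm α} (hg : g ∈ S.P) (hgx : g x ≠ x) {a b : ℕ}
    (h : (g ^ a) x = (g ^ b) x) : a ≡ b [MOD S.p] := by
  wlog hle : a ≤ b generalizing a b
  · exact (this h.symm (by omega)).symm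
  rw [Nat.modEq_iff_dvd' hle]
  by_contra hd
  set d := b - a with hd'
  have hdx : (g ^ d) x = x := by
    have e : g ^ b = g ^ a * g ^ d := by rw [← pow_add]; congr 1; omega
    rw [e, Perm.mul_apply] at h
    exact ((g ^ a).injective h).symm
  have hco : Nat.Coprime d (orderOf g) := by
    refine Nat.Coprime.coprime_dvd_right (orderOf_dvd_of_pow_eq_one (S.P_pow hg)) ?_
    rwa [Nat.coprime_comm, S.hp.coprime_iff_not_dvd]
  obtain ⟨c, hc⟩ := exists_pow_eq_self_of_coprime hco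
  have hmul : ∀ c : ℕ, ((g ^ d) ^ c) x = x := by
    intro c
    induction c with
    | zero => rfl
    | succ c ih => rw [pow_succ, Perm.mul_apply, hdx, ih]
  exact hgx (hc ▸ hmul c)

theorem pow_congr {g : Perm α} (hg : g ∈ S.P) {a b : ℕ} (h : a ≡ b [MOD S.p]) : g ^ a = g ^ b :=
  pow_eq_pow_iff_modEq.2 (h.of_dvd (orderOf_dvd_of_pow_eq_one (S.P_pow hg)))

theorem exists_pow {x : α} (hx : x ∉ S.Γ) {g : Perm α} (hg : g ∈ S.P) (hgx : g x ≠ x) {y : α}
    (hy : y ∈ S.orb x) : ∃ j : ℕ, (g ^ j) x = y := by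
  let f : Fin S.p → {z // z ∈ S.orb x} :=
    fun i => ⟨(g ^ (i : ℕ)) x, S.mem_orb.2 ⟨_, pow_mem hg _, rfl⟩⟩
  have hf : Function.Injective f := by
    intro i i' hii
    have := S.pow_inj hg hgx (congrArg Subtype.val hii)
    exact Fin.ext (Nat.ModEq.eq_of_lt_of_lt this i.2 i'.2)
  have hbij := (Fintype.bijective_iff_injective_and_card f).2
    ⟨hf, by rw [Fintype.card_fin, Fintype.card_coe, S.card_orb hx]⟩
  obtain ⟨i, hi⟩ := hbij.2 ⟨y, hy⟩
  exact ⟨i, congrArg Subtype.val hi⟩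

end Setting

end Cfsg.Agent.TransBound
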